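import Cfsg.Agent.Lib.TI.Basic
import Cfsg.Agent.Lib.Inv.SylowTwo

/-! Elements acting nearly trivially on `O_p(G)` in characteristic `p`. -/

namespace Cfsg.Lib.TI

open Subgroup Cfsg.Lib.Core Cfsg.Lib.Transfer
open scoped commutatorElement

variable {G : Type*} [Group G] [Finite G] {p : ℕ}

theorem mem_pCore_of_commutator_le [Fact p.Prime]
    (h : centralizer (pCore p G : Set G) ≤ pCore p G) (N : Subgroup G) [N.Normal]
    (hN : ∀ Y : Subgroup G, (Nat.card Y).Coprime p → ⁅pCore p G, Y⁆ ≤ N →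
      Y ≤ centralizer (pCore p G : Set G)) {g : G} (hg : ∀ x ∈ pCore p G, ⁅x, g⁆ ∈ N) :
    g ∈ pCore p G := by
  let f := QuotientGroup.mk' N
  have h1 : ∀ g, g ∈ (centralizer ((pCore p G).map f : Set _)).comap f ↔
      ∀ x ∈ pCore p G, ⁅x, g⁆ ∈ N := fun g => by
    simp only [mem_comap, mem_centralizer_iff, coe_map, Set.forall_mem_image, SetLike.mem_coe,
      ← commutatorElement_eq_one_iff_mul_comm, ← map_commutatorElement]
    simp only [f, QuotientGroup.mk'_apply, QuotientGroup.eq_one_iff]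
  have := Normal.map (inferInstance : (pCore p G).Normal) f (QuotientGroup.mk'_surjective _)
  refine le_pCore inferInstance (Loc.res_eq_bot_iff.1 (eq_bot_iff.2 (Loc.res_le_iff.2
    fun y hy hc => ?_))) ((h1 g).2 hg)
  have h2 : (Nat.card (zpowers y)).Coprime p := by rwa [Nat.card_zpowers]
  rw [← zpowers_le, le_bot_iff]
  exact eq_bot_of_isPGroup_of_coprime ((pCore_isPGroup p G).to_le ((hN _ h2
    (commutator_le.2 fun x hx z hz => (h1 z).1 (zpowers_le.2 hy hz) x hx)).trans h)) h2

theorem mem_pCore_of_commutator_le_center [Fact p.Prime]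
    (h : centralizer (pCore p G : Set G) ≤ pCore p G) {g : G}
    (hg : ∀ x ∈ pCore p G, ⁅x, g⁆ ∈ center G) : g ∈ pCore p G :=
  mem_pCore_of_commutator_le h (center G) (fun _ hY h1 =>
    Coprime.le_centralizer_of_commutator_commutator_eq_bot le_normalizer_of_normal
      (coprime_card_of_isPGroup (pCore_isPGroup p G) hY).symm
      (commutator_eq_bot_iff_le_centralizer.2 (h1.trans (center_le_centralizer _)))) hg

/-- ambient form -/
theorem mem_core_of_commutator_le_centralizer [Fact p.Prime] {H : Subgroup G} (h : Loc.IsChP p H)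
    {g : G} (hgH : g ∈ H) (hg : ∀ x ∈ pCoreOf p H, ⁅x, g⁆ ∈ centralizer (H : Set G)) :
    g ∈ pCoreOf p H :=
  mem_map_of_mem H.subtype (x := ⟨g, hgH⟩) (mem_pCore_of_commutator_le_center (Loc.isChP_iff.1 h)
    fun x hx => mem_center_iff.2 fun y => Subtype.ext (hg x (mem_map_of_mem H.subtype hx) y y.2))

end Cfsg.Lib.TI
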